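import Mathlib
import Cfsg.Agent.Lib.Helper32.SignedIrr

/-!
# Coherence of a family of differences of norm two

A family `v i k` of virtual characters of degree `0` that behaves like `e i - e k` for an
orthonormal family `e` is of the form `σ i - σ k` with `σ` an orthonormal family of irreducible
characters up to sign (at least three indices).
-/

set_option autoImplicit false

namespace Cfsg.Agent.Lib.Helper31

open Cfsg Cfsg.Agent.Lib.Helper20 Cfsg.Agent.Lib.Helper32

variable {G : Type*} [Group G] [Fintype G]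

theorem diff_inner_one {a b c d : G → ℂ} (ha : IsIrrCharacter G a) (hb : IsIrrCharacter G b)
    (hc : IsIrrCharacter G c) (hd : IsIrrCharacter G d) (hab : a ≠ b) (hcd : c ≠ d)
    (h : classInner (a - b) (c - d) = 1) : (a = c ∧ b ≠ d) ∨ (b = d ∧ a ≠ c) := by
  classical
  rw [classInner_sub_left, classInner_sub_right, classInner_sub_right, classInner_irr ha hc,
    classInner_irr ha hd, classInner_irr hb hc, classInner_irr hb hd] at h
  by_cases h1 : a = c
  · subst h1
    left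
    refine ⟨rfl, ?_⟩
    intro h4
    rw [if_pos rfl, if_neg hcd, if_neg hab.symm, if_pos h4] at h
    norm_num at h
  · by_cases h4 : b = d
    · exact Or.inr ⟨h4, h1⟩
    · exfalso
      rw [if_neg h1, if_neg h4] at h
      split_ifs at h <;> norm_num at h

section Star

variable {ι : Type*} (v : ι → ι → (G → ℂ))

theorem star_coh_pos
    (hgen : ∀ i k, IsGeneralizedCharacter G (v i k)) (h1 : ∀ i k, v i k 1 = 0)
    (hin2 : ∀ i k, i ≠ k → classInner (v i k) (v i k) = 2)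
    (hin1 : ∀ i k l, i ≠ k → i ≠ l → k ≠ l → classInner (v i k) (v i l) = 1)
    (i₀ i₁ i₂ : ι) (h01 : i₀ ≠ i₁) (h02 : i₀ ≠ i₂)
    {a b d : G → ℂ} (ha : IsIrrCharacter G a) (hb : IsIrrCharacter G b) (hd : IsIrrCharacter G d)
    (hab : a ≠ b) (had : a ≠ d) (hbd : b ≠ d) (e1 : v i₀ i₁ = a - b) (e2 : v i₀ i₂ = a - d) :
    ∀ k, i₀ ≠ k → classInner a (v i₀ k) = 1 := by
  intro k hk
  by_cases hk1 : i₁ = k
  · subst hk1
    rw [e1, classInner_sub_right, classInner_irr_self ha, classInner_irr_ne ha hb hab, sub_zero]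
  by_cases hk2 : i₂ = k
  · subst hk2
    rw [e2, classInner_sub_right, classInner_irr_self ha, classInner_irr_ne ha hd had, sub_zero]
  obtain ⟨e, f, he, hf, hef, hv⟩ := genChar_norm_two (hgen i₀ k) (hin2 i₀ k hk) (h1 i₀ k)
  have t1 := hin1 i₀ i₁ k h01 hk hk1
  have t2 := hin1 i₀ i₂ k h02 hk hk2
  rw [e1, hv] at t1
  rw [e2, hv] at t2
  have hae : a = e := by
    rcases diff_inner_one ha hb he hf hab hef t1 with h | h
    · exact h.1
    · rcases diff_inner_one ha hd he hf had hef t2 with h' | h'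
      · exact h'.1
      · exact absurd (h.1.trans h'.1.symm) hbd
  subst hae
  rw [hv, classInner_sub_right, classInner_irr_self ha, classInner_irr_ne ha hf hef, sub_zero]

theorem star_coh_neg
    (hgen : ∀ i k, IsGeneralizedCharacter G (v i k)) (h1 : ∀ i k, v i k 1 = 0)
    (hin2 : ∀ i k, i ≠ k → classInner (v i k) (v i k) = 2)
    (hin1 : ∀ i k l, i ≠ k → i ≠ l → k ≠ l → classInner (v i k) (v i l) = 1)
    (i₀ i₁ i₂ : ι) (h01 : i₀ ≠ i₁) (h02 : i₀ ≠ i₂)
    {a b c : G → ℂ} (ha : IsIrrCharacter G a) (hb : IsIrrCharacter G b) (hc : IsIrrCharacter G c)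
    (hab : a ≠ b) (hcb : c ≠ b) (hac : a ≠ c) (e1 : v i₀ i₁ = a - b) (e2 : v i₀ i₂ = c - b) :
    ∀ k, i₀ ≠ k → classInner (-b) (v i₀ k) = 1 := by
  intro k hk
  by_cases hk1 : i₁ = k
  · subst hk1
    rw [e1, classInner_neg_left, classInner_sub_right, classInner_irr_self hb,
      classInner_irr_ne hb ha hab.symm]
    ring
  by_cases hk2 : i₂ = k
  · subst hk2
    rw [e2, classInner_neg_left, classInner_sub_right, classInner_irr_self hb,
      classInner_irr_ne hb hc hcb.symm]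
    ring
  obtain ⟨e, f, he, hf, hef, hv⟩ := genChar_norm_two (hgen i₀ k) (hin2 i₀ k hk) (h1 i₀ k)
  have t1 := hin1 i₀ i₁ k h01 hk hk1
  have t2 := hin1 i₀ i₂ k h02 hk hk2
  rw [e1, hv] at t1
  rw [e2, hv] at t2
  have hbf : b = f := by
    rcases diff_inner_one ha hb he hf hab hef t1 with h | h
    · rcases diff_inner_one hc hb he hf hcb hef t2 with h' | h'
      · exact absurd (h.1.trans h'.1.symm) hac
      · exact h'.1
    · exact h.1
  subst hbf
  rw [hv, classInner_neg_left, classInner_sub_right, classInner_irr_self hb,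
    classInner_irr_ne hb he hef.symm]
  ring

open Classical in
theorem star_coh_of_base
    (hgen : ∀ i k, IsGeneralizedCharacter G (v i k))
    (hadd : ∀ i k l, v i k + v k l = v i l)
    (hin2 : ∀ i k, i ≠ k → classInner (v i k) (v i k) = 2)
    (hin1 : ∀ i k l, i ≠ k → i ≠ l → k ≠ l → classInner (v i k) (v i l) = 1)
    (i₀ : ι) {s : G → ℂ} (hs : SignedIrr G s)
    (hsv : ∀ k, i₀ ≠ k → classInner s (v i₀ k) = 1) :
    ∃ σ : ι → (G → ℂ), (∀ i, SignedIrr G (σ i)) ∧
      (∀ i k, classInner (σ i) (σ k) = if i = k then 1 else 0) ∧ ∀ i k, v i k = σ i - σ k := by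
  have h00 : v i₀ i₀ = 0 := by
    have := hadd i₀ i₀ i₀
    exact left_eq_add.1 this.symm
  have hsv' : ∀ k, i₀ ≠ k → classInner (v i₀ k) s = 1 := by
    intro k hk
    rw [← classInner_conj_symm, hsv k hk, map_one]
  have hinner : ∀ i k, classInner (s - v i₀ i) (s - v i₀ k) = if i = k then 1 else 0 := by
    intro i k
    rw [classInner_sub_left, classInner_sub_right, classInner_sub_right, hs.inner_self]
    by_cases hi : i₀ = i
    · subst hi
      rw [h00, classInner_zero_left, classInner_zero_left]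
      by_cases hk : i₀ = k
      · subst hk
        rw [h00, classInner_zero_right, if_pos rfl]; ring
      · rw [hsv k hk, if_neg hk]; ring
    · by_cases hk : i₀ = k
      · subst hk
        rw [h00, classInner_zero_right, classInner_zero_right, hsv' i hi,
          if_neg (fun h => hi h.symm)]
        ring
      · rw [hsv k hk, hsv' i hi]
        by_cases hik : i = k
        · subst hik
          rw [hin2 i₀ i hi, if_pos rfl]; ring
        · rw [hin1 i₀ i k hi hk hik, if_neg hik]; ring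
  refine ⟨fun i => s - v i₀ i, ?_, hinner, ?_⟩
  · intro i
    have := hinner i i
    rw [if_pos rfl] at this
    exact genChar_norm_one (genChar_sub hs.genChar (hgen i₀ i)) this
  · intro i k
    have := hadd i₀ i k
    show v i k = (s - v i₀ i) - (s - v i₀ k)
    rw [← this]
    abel

open Classical in
/-- the star lemma -/
theorem star_coh
    (hgen : ∀ i k, IsGeneralizedCharacter G (v i k)) (h1 : ∀ i k, v i k 1 = 0)
    (hadd : ∀ i k l, v i k + v k l = v i l)
    (hin2 : ∀ i k, i ≠ k → classInner (v i k) (v i k) = 2)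
    (hin1 : ∀ i k l, i ≠ k → i ≠ l → k ≠ l → classInner (v i k) (v i l) = 1)
    (i₀ i₁ i₂ : ι) (h01 : i₀ ≠ i₁) (h02 : i₀ ≠ i₂) (h12 : i₁ ≠ i₂) :
    ∃ σ : ι → (G → ℂ), (∀ i, SignedIrr G (σ i)) ∧
      (∀ i k, classInner (σ i) (σ k) = if i = k then 1 else 0) ∧ ∀ i k, v i k = σ i - σ k := by
  obtain ⟨a, b, ha, hb, hab, e1⟩ := genChar_norm_two (hgen i₀ i₁) (hin2 i₀ i₁ h01) (h1 i₀ i₁)
  obtain ⟨c, d, hc, hd, hcd, e2⟩ := genChar_norm_two (hgen i₀ i₂) (hin2 i₀ i₂ h02) (h1 i₀ i₂)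
  have t := hin1 i₀ i₁ i₂ h01 h02 h12
  rw [e1, e2] at t
  rcases diff_inner_one ha hb hc hd hab hcd t with ⟨h, h'⟩ | ⟨h, h'⟩
  · subst h
    exact star_coh_of_base v hgen hadd hin2 hin1 i₀ (Or.inl ha)
      (star_coh_pos v hgen h1 hin2 hin1 i₀ i₁ i₂ h01 h02 ha hb hd hab hcd h' e1 e2)
  · subst h
    exact star_coh_of_base v hgen hadd hin2 hin1 i₀ (Or.inr (by simpa using hb))
      (star_coh_neg v hgen h1 hin2 hin1 i₀ i₁ i₂ h01 h02 ha hb hc hab hcd h' e1 e2)

end Star

omit [Fintype G] in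
theorem signedIrr_irr_iff {α : G → ℂ} (h : SignedIrr G α) :
    IsIrrCharacter G α ↔ 0 < (α 1).re := by
  constructor
  · intro h'
    obtain ⟨n, hn, h1⟩ := irr_apply_one h'
    rw [h1]
    simpa using hn
  · intro hpos
    rcases h with h | h
    · exact h
    · exfalso
      obtain ⟨n, hn, h1⟩ := irr_apply_one h
      have h2 : α 1 = -(n : ℂ) := by
        rw [← h1]; simp
      rw [h2] at hpos
      simp only [Complex.neg_re, Complex.natCast_re] at hpos
      have : (0 : ℝ) < n := by exact_mod_cast hn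
      linarith

section Classes

variable {X Q : Type*} (cls : X → Q) (v : X → X → (G → ℂ))

open Classical in
theorem star_coh_classes
    (hgen : ∀ ω ω', cls ω = cls ω' → IsGeneralizedCharacter G (v ω ω'))
    (h1 : ∀ ω ω', cls ω = cls ω' → v ω ω' 1 = 0)
    (hadd : ∀ ω ω' ω'', v ω ω' + v ω' ω'' = v ω ω'')
    (hin : ∀ ω ω' η η', cls ω = cls ω' → cls η = cls η' → classInner (v ω ω') (v η η') =
      (if ω = η then 1 else 0) - (if ω = η' then 1 else 0) - (if ω' = η then 1 else 0) +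
        (if ω' = η' then 1 else 0))
    (h3 : ∀ ω, ∃ ω' ω'', cls ω' = cls ω ∧ cls ω'' = cls ω ∧ ω ≠ ω' ∧ ω ≠ ω'' ∧ ω' ≠ ω'') :
    ∃ σ : X → (G → ℂ), (∀ ω, SignedIrr G (σ ω)) ∧
      (∀ ω η, classInner (σ ω) (σ η) = if ω = η then 1 else 0) ∧
      ∀ ω ω', cls ω = cls ω' → v ω ω' = σ ω - σ ω' := by
  have key : ∀ q : Q, ∃ σq : {ω // cls ω = q} → (G → ℂ), (∀ i, SignedIrr G (σq i)) ∧
      (∀ i k, classInner (σq i) (σq k) = @ite ℂ (i = k) (Classical.propDecidable _) 1 0) ∧
      ∀ i k, v i.1 k.1 = σq i - σq k := by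
    intro q
    by_cases hne : Nonempty {ω // cls ω = q}
    · obtain ⟨⟨ω, hω⟩⟩ := hne
      obtain ⟨ω', ω'', h', h'', n1, n2, n3⟩ := h3 ω
      refine star_coh (fun i k : {ω // cls ω = q} => v i.1 k.1) ?_ ?_ ?_ ?_ ?_ ⟨ω, hω⟩
        ⟨ω', h'.trans hω⟩ ⟨ω'', h''.trans hω⟩ ?_ ?_ ?_
      · intro i k; exact hgen _ _ (i.2.trans k.2.symm)
      · intro i k; exact h1 _ _ (i.2.trans k.2.symm)
      · intro i k l; exact hadd _ _ _
      · intro i k hik
        have hik' : i.1 ≠ k.1 := fun h => hik (Subtype.ext h)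
        rw [hin _ _ _ _ (i.2.trans k.2.symm) (i.2.trans k.2.symm), if_pos rfl, if_neg hik',
          if_neg hik'.symm, if_pos rfl]
        norm_num
      · intro i k l hik hil hkl
        have hik' : i.1 ≠ k.1 := fun h => hik (Subtype.ext h)
        have hil' : i.1 ≠ l.1 := fun h => hil (Subtype.ext h)
        have hkl' : k.1 ≠ l.1 := fun h => hkl (Subtype.ext h)
        rw [hin _ _ _ _ (i.2.trans k.2.symm) (i.2.trans l.2.symm), if_pos rfl, if_neg hil',
          if_neg hik'.symm, if_neg hkl']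
        norm_num
      · intro h; exact n1 (congrArg Subtype.val h)
      · intro h; exact n2 (congrArg Subtype.val h)
      · intro h; exact n3 (congrArg Subtype.val h)
    · exact ⟨fun _ => 0, fun i => (hne ⟨i⟩).elim, fun i => (hne ⟨i⟩).elim,
        fun i => (hne ⟨i⟩).elim⟩
  choose σq hq1 hq2 hq3 using key
  have hσ : ∀ (ω : X) (q : Q) (h : cls ω = q), σq q ⟨ω, h⟩ = σq (cls ω) ⟨ω, rfl⟩ := by
    intro ω q h; subst h; rfl
  have same : ∀ ω η, cls ω = cls η → classInner (σq (cls ω) ⟨ω, rfl⟩) (σq (cls η) ⟨η, rfl⟩) =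
      if ω = η then 1 else 0 := by
    intro ω η hc
    rw [← hσ ω (cls η) hc, hq2]
    by_cases h : ω = η
    · rw [if_pos h, if_pos (Subtype.ext h)]
    · rw [if_neg h, if_neg (fun h' => h (congrArg Subtype.val h'))]
  have hv : ∀ ω ω', cls ω = cls ω' → v ω ω' = σq (cls ω) ⟨ω, rfl⟩ - σq (cls ω') ⟨ω', rfl⟩ := by
    intro ω ω' hc
    rw [← hσ ω (cls ω') hc]
    exact hq3 (cls ω') ⟨ω, hc⟩ ⟨ω', rfl⟩
  refine ⟨fun ω => σq (cls ω) ⟨ω, rfl⟩, fun ω => hq1 _ _, ?_, hv⟩
  intro ω η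
  by_cases hc : cls ω = cls η
  · exact same ω η hc
  · have hne : ω ≠ η := fun h => hc (congrArg cls h)
    show classInner (σq (cls ω) ⟨ω, rfl⟩) (σq (cls η) ⟨η, rfl⟩) = _
    rw [if_neg hne]
    obtain ⟨ω', -, h', -, n1, -, -⟩ := h3 ω
    obtain ⟨η', -, g', -, m1, -, -⟩ := h3 η
    have d1 : σq (cls ω) ⟨ω, rfl⟩ 1 = σq (cls ω') ⟨ω', rfl⟩ 1 := by
      have := h1 ω ω' h'.symm
      rw [hv ω ω' h'.symm, Pi.sub_apply] at this
      exact sub_eq_zero.1 this
    have d2 : σq (cls η) ⟨η, rfl⟩ 1 = σq (cls η') ⟨η', rfl⟩ 1 := by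
      have := h1 η η' g'.symm
      rw [hv η η' g'.symm, Pi.sub_apply] at this
      exact sub_eq_zero.1 this
    have hmix := hin ω ω' η η' h'.symm g'.symm
    rw [if_neg hne, if_neg (fun h => hc (by rw [h, g'])), if_neg (fun h => hc (by rw [← h, h'])),
      if_neg (fun h => hc (by rw [← h', h, g'])), hv ω ω' h'.symm, hv η η' g'.symm] at hmix
    have r1 := same ω ω' h'.symm
    rw [if_neg n1] at r1
    have r2 := same η η' g'.symm
    rw [if_neg m1] at r2
    exact (four_signed (hq1 _ ⟨ω, rfl⟩) (hq1 _ ⟨ω', rfl⟩) (hq1 _ ⟨η, rfl⟩) (hq1 _ ⟨η', rfl⟩)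
      1 1 1 1 one_ne_zero one_ne_zero one_ne_zero one_ne_zero r1 r2
      (by simpa using hmix) (by simpa using d1) (by simpa using d2)).1

open Classical in
/-- the same with irreducible characters and signs -/
theorem star_coh_classes'
    (hgen : ∀ ω ω', cls ω = cls ω' → IsGeneralizedCharacter G (v ω ω'))
    (h1 : ∀ ω ω', cls ω = cls ω' → v ω ω' 1 = 0)
    (hadd : ∀ ω ω' ω'', v ω ω' + v ω' ω'' = v ω ω'')
    (hin : ∀ ω ω' η η', cls ω = cls ω' → cls η = cls η' → classInner (v ω ω') (v η η') =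
      (if ω = η then 1 else 0) - (if ω = η' then 1 else 0) - (if ω' = η then 1 else 0) +
        (if ω' = η' then 1 else 0))
    (h3 : ∀ ω, ∃ ω' ω'', cls ω' = cls ω ∧ cls ω'' = cls ω ∧ ω ≠ ω' ∧ ω ≠ ω'' ∧ ω' ≠ ω'') :
    ∃ (μ : X → (G → ℂ)) (δ : X → ℂ), Function.Injective μ ∧ (∀ ω, IsIrrCharacter G (μ ω)) ∧
      (∀ ω, δ ω = 1 ∨ δ ω = -1) ∧
      ∀ ω ω', cls ω = cls ω' → δ ω = δ ω' ∧ v ω ω' = δ ω • (μ ω - μ ω') := by
  obtain ⟨σ, hs1, hs2, hs3⟩ := star_coh_classes cls v hgen h1 hadd hin h3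
  let δ : X → ℂ := fun ω => if 0 < (σ ω 1).re then 1 else -1
  have hδ : ∀ ω, δ ω = 1 ∨ δ ω = -1 := by
    intro ω
    by_cases h : 0 < (σ ω 1).re
    · left; exact if_pos h
    · right; exact if_neg h
  have hδ2 : ∀ ω, δ ω * δ ω = 1 := by
    intro ω
    rcases hδ ω with h | h <;> rw [h] <;> norm_num
  have hirr : ∀ ω, IsIrrCharacter G (δ ω • σ ω) := by
    intro ω
    by_cases h : 0 < (σ ω 1).re
    · have : δ ω = 1 := if_pos h
      rw [this, one_smul]
      exact (signedIrr_irr_iff (hs1 ω)).2 h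
    · have : δ ω = -1 := if_neg h
      rw [this, neg_one_smul]
      rcases hs1 ω with h' | h'
      · exact absurd ((signedIrr_irr_iff (hs1 ω)).1 h') h
      · exact h'
  refine ⟨fun ω => δ ω • σ ω, δ, ?_, hirr, hδ, ?_⟩
  · intro ω η h
    by_contra hne
    have h2 := hs2 ω η
    rw [if_neg hne] at h2
    have h3 := classInner_irr_self (hirr ω)
    have h' : δ ω • σ ω = δ η • σ η := h
    nth_rewrite 2 [h'] at h3
    rw [classInner_smul_left, classInner_smul_right, h2] at h3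
    simp at h3
  · intro ω ω' hc
    have d1 : σ ω 1 = σ ω' 1 := by
      have := h1 ω ω' hc
      rw [hs3 ω ω' hc, Pi.sub_apply] at this
      exact sub_eq_zero.1 this
    have hδδ : δ ω = δ ω' := by
      show (if 0 < (σ ω 1).re then (1 : ℂ) else -1) = if 0 < (σ ω' 1).re then (1 : ℂ) else -1
      rw [d1]
    refine ⟨hδδ, ?_⟩
    show v ω ω' = δ ω • (δ ω • σ ω - δ ω' • σ ω')
    rw [← hδδ, ← smul_sub, smul_smul, hδ2, one_smul]
    exact hs3 ω ω' hc

end Classes

end Cfsg.Agent.Lib.Helper31
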