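import Mathlib
import Cfsg.Agent.Lib.Helper31.TypeP
import Cfsg.Agent.Lib.Helper31.StarCoh
import Cfsg.Agent.Lib.Helper32.CyclicTI3
import Cfsg.Agent.Lib.Helper4.IndSpan

/-!
# The trivial intersection set `W \ W₂` in `L = K ⋊ W₁`, and the exceptional characters
-/

set_option autoImplicit false
set_option linter.unusedSectionVars false

namespace Cfsg.Agent.Lib.Helper31

open Cfsg Subgroup
open Cfsg.Agent.Lib.Helper20 Cfsg.Agent.Lib.Helper5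
open scoped ComplexConjugate

section Ann

variable {A : Type*} [Group A] [Fintype A]

open Classical in
theorem sum_hom_apply [Fintype (A →* ℂˣ)] (hA : ∀ a b : A, a * b = b * a) (y : A) :
    ∑ φ : A →* ℂˣ, ((φ y : ℂˣ) : ℂ) = if y = 1 then (Fintype.card (A →* ℂˣ) : ℂ) else 0 := by
  by_cases hy : y = 1
  · subst hy
    simp
  · rw [if_neg hy, sum_hom_eq_zero hA hy]

/-- a function orthogonal to all differences of linear characters agreeing on `K`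
vanishes off `K` -/
theorem ann_vanish1 (hA : ∀ a b : A, a * b = b * a) (K : Subgroup A) {w₀ : A} (h0 : w₀ ∉ K)
    (f : A → ℂ)
    (hz : ∀ φ ψ : A →* ℂˣ, (∀ k ∈ K, φ k = ψ k) →
      classInner (fun x : A => ((φ x : ℂˣ) : ℂ) - ((ψ x : ℂˣ) : ℂ)) f = 0) :
    f w₀ = 0 := by
  classical
  let _ : Fintype (A →* ℂˣ) := Fintype.ofFinite _
  obtain ⟨l, hl1, hl2⟩ := Cfsg.Agent.Lib.Helper32.exists_hom_ne_one_of_not_mem hA K h0
  have h1 : classInner (∑ φ : A →* ℂˣ, ((φ w₀⁻¹ : ℂˣ) : ℂ) •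
      (fun x : A => ((φ x : ℂˣ) : ℂ) - (((l * φ) x : ℂˣ) : ℂ))) f = 0 := by
    rw [classInner_sum_left]
    apply Finset.sum_eq_zero
    intro φ _
    rw [classInner_smul_left, hz φ (l * φ) (fun k hk => by
      rw [MonoidHom.mul_apply, hl1 k hk, one_mul]), mul_zero]
  have h2 : (∑ φ : A →* ℂˣ, ((φ w₀⁻¹ : ℂˣ) : ℂ) •
      (fun x : A => ((φ x : ℂˣ) : ℂ) - (((l * φ) x : ℂˣ) : ℂ))) =
      fun x => if x = w₀ then (Fintype.card (A →* ℂˣ) : ℂ) * (1 - ((l w₀ : ℂˣ) : ℂ)) else 0 := by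
    funext x
    rw [Finset.sum_apply]
    have e : ∀ φ : A →* ℂˣ, (((φ w₀⁻¹ : ℂˣ) : ℂ) •
        (fun x : A => ((φ x : ℂˣ) : ℂ) - (((l * φ) x : ℂˣ) : ℂ))) x =
        ((φ (w₀⁻¹ * x) : ℂˣ) : ℂ) * (1 - ((l x : ℂˣ) : ℂ)) := by
      intro φ
      rw [Pi.smul_apply, smul_eq_mul, MonoidHom.mul_apply, map_mul, Units.val_mul, Units.val_mul]
      ring
    simp only [e]
    rw [← Finset.sum_mul, sum_hom_apply hA]
    by_cases hx : x = w₀
    · subst hx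
      rw [if_pos rfl, if_pos (inv_mul_cancel x)]
    · rw [if_neg hx, if_neg (fun h => hx (inv_mul_eq_one.1 h).symm), zero_mul]
  rw [h2] at h1
  unfold classInner at h1
  beta_reduce at h1
  rw [Finset.sum_eq_single w₀ (fun b _ hb => by rw [if_neg hb, zero_mul])
    (fun h => absurd (Finset.mem_univ _) h), if_pos rfl] at h1
  have c1 : (Nat.card A : ℂ)⁻¹ ≠ 0 := inv_ne_zero (by exact_mod_cast Nat.card_pos.ne')
  have c2 : (Fintype.card (A →* ℂˣ) : ℂ) ≠ 0 := by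
    exact_mod_cast (Fintype.card_pos (α := A →* ℂˣ)).ne'
  have c3 : (1 - ((l w₀ : ℂˣ) : ℂ)) ≠ 0 := by
    intro h
    exact hl2 (Units.ext (sub_eq_zero.1 h).symm)
  have h3 : conj (f w₀) = 0 := by
    rcases mul_eq_zero.1 h1 with h | h
    · exact absurd h c1
    · rcases mul_eq_zero.1 h with h | h
      · rcases mul_eq_zero.1 h with h | h
        · exact absurd h c2
        · exact absurd h c3
      · exact h
  simpa using h3

theorem hom_mul_conj {B : Type*} [Group B] [Finite B] (l : B →* ℂˣ) (x : B) :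
    ((l x : ℂˣ) : ℂ) * conj ((l x : ℂˣ) : ℂ) = 1 := by
  have h1 : ((l x : ℂˣ) : ℂ) ^ orderOf x = 1 := by
    rw [← Units.val_pow_eq_pow_val, ← map_pow, pow_orderOf_eq_one, map_one, Units.val_one]
  have h2 : ‖((l x : ℂˣ) : ℂ)‖ = 1 :=
    Complex.norm_eq_one_of_pow_eq_one h1 (orderOf_pos x).ne'
  rw [Complex.mul_conj, Complex.normSq_eq_norm_sq, h2]
  simp

/-- a character agreeing with `δ l` off the identity of a subgroup has degree `≡ δ` modulo the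
order of the subgroup -/
theorem deg_congr_of_eq_lin {L : Type*} [Group L] [Finite L] (U : Subgroup L) {χ : L → ℂ}
    (hχ : IsCharacter L χ) (l : U →* ℂˣ) (δ : ℤ)
    (h : ∀ x : U, x ≠ 1 → χ x = (δ : ℂ) * ((l x : ℂˣ) : ℂ)) :
    ∃ n : ℤ, χ 1 - (δ : ℂ) = n * (Nat.card U : ℂ) := by
  classical
  let _ : Fintype U := Fintype.ofFinite U
  obtain ⟨n, hn⟩ := Cfsg.Agent.Lib.Helper32.genChar_inner_irr_int
    (Cfsg.Agent.Lib.Helper32.genChar_of_char (isCharacter_restrict hχ U))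
    (Cfsg.Agent.Lib.Helper83.isIrr_of_hom l)
  unfold classInner at hn
  have e : ∀ x : U, χ x * conj ((l x : ℂˣ) : ℂ) =
      (δ : ℂ) + if x = 1 then χ 1 - (δ : ℂ) else 0 := by
    intro x
    by_cases hx : x = 1
    · subst hx
      simp
    · rw [if_neg hx, h x hx, mul_assoc, hom_mul_conj, mul_one, add_zero]
  simp only [e] at hn
  rw [Finset.sum_add_distrib, Finset.sum_const, Finset.card_univ, nsmul_eq_mul,
    Finset.sum_ite_eq' Finset.univ (1 : U), if_pos (Finset.mem_univ _),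
    ← Nat.card_eq_fintype_card] at hn
  have c : (Nat.card U : ℂ) ≠ 0 := by exact_mod_cast Nat.card_pos.ne'
  refine ⟨n - δ, ?_⟩
  rw [inv_mul_eq_iff_eq_mul₀ c] at hn
  push_cast
  linear_combination hn

end Ann

section Setup

variable {L : Type*} [Group L] {K W₁ W₂ : Subgroup L} [hK : K.Normal]

theorem tp_disj (hKW₁ : K ⊓ W₁ = ⊥) (hW₂K : W₂ ≤ K) : W₁ ⊓ W₂ = ⊥ := by
  rw [eq_bot_iff, ← hKW₁]
  exact le_inf (inf_le_right.trans hW₂K) inf_le_left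

theorem tp_comm12 (hC : ∀ x ∈ W₁, x ≠ 1 → K ⊓ Subgroup.centralizer ({x} : Set L) = W₂) :
    ∀ a ∈ W₁, ∀ b ∈ W₂, a * b = b * a := by
  intro a ha b hb
  by_cases ha1 : a = 1
  · simp [ha1]
  · have h1 : b ∈ K ⊓ Subgroup.centralizer ({a} : Set L) := by rw [hC a ha ha1]; exact hb
    exact (Subgroup.mem_centralizer_singleton_iff.mp h1.2).symm

theorem tp_mem_sup (hcomm : ∀ a ∈ W₁, ∀ b ∈ W₂, a * b = b * a) {x : L} (hx : x ∈ W₁ ⊔ W₂) :
    ∃ a ∈ W₁, ∃ b ∈ W₂, x = a * b := by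
  have hW₁N : W₁ ≤ Subgroup.normalizer (W₂ : Set L) := by
    refine le_trans ?_ (Subgroup.centralizer_le_normalizer _)
    intro a ha
    rw [Subgroup.mem_centralizer_iff]
    intro b hb
    exact (hcomm a ha b hb).symm
  have h1 : x ∈ ((W₁ ⊔ W₂ : Subgroup L) : Set L) := hx
  rw [Subgroup.coe_mul_of_left_le_normalizer_right W₁ W₂ hW₁N] at h1
  obtain ⟨a, ha, b, hb, rfl⟩ := Set.mem_mul.mp h1
  exact ⟨a, ha, b, hb, rfl⟩

theorem tp_W_comm (hW₁c : IsCyclic W₁) (hW₂c : IsCyclic W₂)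
    (hcomm : ∀ a ∈ W₁, ∀ b ∈ W₂, a * b = b * a) :
    ∀ x ∈ W₁ ⊔ W₂, ∀ y ∈ W₁ ⊔ W₂, x * y = y * x := by
  intro x hx y hy
  obtain ⟨a, ha, b, hb, rfl⟩ := tp_mem_sup hcomm hx
  obtain ⟨c, hc, d, hd, rfl⟩ := tp_mem_sup hcomm hy
  have h1 := comm_of_isCyclic_subgroup hW₁c a ha c hc
  have h2 := comm_of_isCyclic_subgroup hW₂c b hb d hd
  have h3 := hcomm a ha d hd
  have h4 := hcomm c hc b hb
  calc a * b * (c * d) = a * (b * c) * d := by group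
    _ = a * (c * b) * d := by rw [h4]
    _ = (a * c) * (b * d) := by group
    _ = (c * a) * (d * b) := by rw [h1, h2]
    _ = c * (a * d) * b := by group
    _ = c * (d * a) * b := by rw [h3]
    _ = c * d * (a * b) := by group

/-- the trivial intersection property of `W \ W₂` -/
theorem tp_TI [Finite L] (hKW₁ : K ⊓ W₁ = ⊥) (hKW₁' : K ⊔ W₁ = ⊤) (hW₁c : IsCyclic W₁)
    (hHall : Nat.Coprime (Nat.card W₁) W₁.index) (hW₂c : IsCyclic W₂) (hW₂K : W₂ ≤ K)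
    (hC : ∀ x ∈ W₁, x ≠ 1 → K ⊓ Subgroup.centralizer ({x} : Set L) = W₂)
    {g t : L} (ht : t ∈ W₁ ⊔ W₂) (ht2 : t ∉ W₂) (hgt : g * t * g⁻¹ ∈ W₁ ⊔ W₂) :
    g ∈ W₁ ⊔ W₂ := by
  have hcomm := tp_comm12 hC
  have hWc := tp_W_comm hW₁c hW₂c hcomm
  have hcop : (Nat.card ↥W₁).Coprime (Nat.card ↥W₂) :=
    Nat.Coprime.coprime_dvd_right (Subgroup.card_dvd_of_le hW₂K) (tp_cop hKW₁ hKW₁' hHall)
  obtain ⟨m, hm1, hm2⟩ := Nat.chineseRemainder hcop 1 0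
  have hpow : ∀ a ∈ W₁, ∀ b ∈ W₂, (a * b) ^ m = a := by
    intro a ha b hb
    rw [(show Commute a b from hcomm a ha b hb).mul_pow]
    have h1 : a ^ m = a ^ 1 :=
      pow_eq_pow_iff_modEq.mpr (hm1.of_dvd (Subgroup.orderOf_dvd_natCard W₁ ha))
    have h2 : b ^ m = b ^ 0 :=
      pow_eq_pow_iff_modEq.mpr (hm2.of_dvd (Subgroup.orderOf_dvd_natCard W₂ hb))
    rw [h1, h2]; simp
  obtain ⟨k, hk, w, hw, rfl⟩ := tp_exists_mul hKW₁' g
  have hwt : w * t * w⁻¹ = t := by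
    rw [hWc w (Subgroup.mem_sup_left hw) t ht, mul_inv_cancel_right]
  have hkt : k * t * k⁻¹ ∈ W₁ ⊔ W₂ := by
    have : k * w * t * (k * w)⁻¹ = k * (w * t * w⁻¹) * k⁻¹ := by group
    rw [this, hwt] at hgt
    exact hgt
  obtain ⟨a, ha, b, hb, rfl⟩ := tp_mem_sup hcomm ht
  obtain ⟨a', ha', b', hb', he⟩ := tp_mem_sup hcomm hkt
  have h1 : k * a * k⁻¹ = a' := by
    rw [← hpow a ha b hb, ← conj_pow, he, hpow a' ha' b' hb']
  have h2 : k * a * k⁻¹ * a⁻¹ ∈ K ⊓ W₁ := by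
    refine Subgroup.mem_inf.mpr ⟨?_, ?_⟩
    · have : k * a * k⁻¹ * a⁻¹ = k * (a * k⁻¹ * a⁻¹) := by group
      rw [this]
      exact K.mul_mem hk (hK.conj_mem _ (K.inv_mem hk) a)
    · rw [h1]; exact W₁.mul_mem ha' (W₁.inv_mem ha)
  rw [hKW₁, Subgroup.mem_bot, mul_inv_eq_one, mul_inv_eq_iff_eq_mul] at h2
  have ha1 : a ≠ 1 := by
    rintro rfl
    apply ht2
    simpa using hb
  have hkW₂ : k ∈ W₂ := by
    rw [← hC a ha ha1]
    exact Subgroup.mem_inf.mpr ⟨hk, Subgroup.mem_centralizer_singleton_iff.mpr h2⟩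
  exact Subgroup.mul_mem _ (Subgroup.mem_sup_right hkW₂) (Subgroup.mem_sup_left hw)

/-- induction from `W` is an isometry on functions vanishing on `W₂` -/
theorem tp_isometry [Fintype L] [Fintype ↥(W₁ ⊔ W₂)] (hKW₁ : K ⊓ W₁ = ⊥) (hKW₁' : K ⊔ W₁ = ⊤)
    (hW₁ : W₁ ≠ ⊥) (hW₁c : IsCyclic W₁)
    (hHall : Nat.Coprime (Nat.card W₁) W₁.index) (hW₂c : IsCyclic W₂) (hW₂K : W₂ ≤ K)
    (hC : ∀ x ∈ W₁, x ≠ 1 → K ⊓ Subgroup.centralizer ({x} : Set L) = W₂)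
    (ψ θ : ↥(W₁ ⊔ W₂) → ℂ) (hψ : ∀ x : ↥(W₁ ⊔ W₂), (x : L) ∈ W₂ → ψ x = 0)
    (hθ : ∀ x : ↥(W₁ ⊔ W₂), (x : L) ∈ W₂ → θ x = 0) :
    classInner (indFun (W₁ ⊔ W₂) ψ) (indFun (W₁ ⊔ W₂) θ) = classInner ψ θ := by
  have hcomm := tp_comm12 hC
  have hWc := tp_W_comm hW₁c hW₂c hcomm
  have hTI := fun {g t : L} => tp_TI (g := g) (t := t) hKW₁ hKW₁' hW₁c hHall hW₂c hW₂K hC
  have hcl : ∀ f : ↥(W₁ ⊔ W₂) → ℂ, IsClassFunction ↥(W₁ ⊔ W₂) f := by
    intro f g x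
    have : x * g * x⁻¹ = g := by
      have h := hWc x x.2 g g.2
      have h' : x * g = g * x := Subtype.ext h
      rw [h', mul_inv_cancel_right]
    rw [this]
  obtain ⟨a, ha, ha1⟩ : ∃ a ∈ W₁, a ≠ 1 := by
    by_contra hcon
    push Not at hcon
    exact hW₁ ((Subgroup.eq_bot_iff_forall _).2 hcon)
  have haW₂ : a ∉ W₂ := by
    intro h
    have : a ∈ W₁ ⊓ W₂ := ⟨ha, h⟩
    rw [tp_disj hKW₁ hW₂K, Subgroup.mem_bot] at this
    exact ha1 this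
  apply Cfsg.Agent.Lib.Helper32.ti_isometry_of_eq {x : L | x ∈ W₁ ⊔ W₂ ∧ x ∉ W₂} (W₁ ⊔ W₂)
  · apply le_antisymm
    · intro g hg
      have h1 : a ∈ {x : L | x ∈ W₁ ⊔ W₂ ∧ x ∉ W₂} := ⟨Subgroup.mem_sup_left ha, haW₂⟩
      have h2 := (Subgroup.mem_set_normalizer_iff.mp hg a).mp h1
      exact hTI (Subgroup.mem_sup_left ha) haW₂ h2.1
    · rw [Subgroup.le_set_normalizer_iff]
      intro w hw x hx
      rw [hWc w hw x hx.1, mul_inv_cancel_right]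
      exact hx
  · intro g hg t ht hs
    exact absurd (hTI ht.1 ht.2 hs.1) hg
  · intro x hx
    exact hx.1
  · exact hcl ψ
  · exact hcl θ
  · intro x hx
    apply hψ
    by_contra hcon
    exact hx ⟨x.2, hcon⟩
  · intro x hx
    apply hθ
    by_contra hcon
    exact hx ⟨x.2, hcon⟩
  · exact hψ 1 (one_mem _)

end Setup

end Cfsg.Agent.Lib.Helper31
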