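import Cfsg.Agent.Lib.Helper22.OF4Defs

/-! ladder OF4, rung COMM -/

set_option autoImplicit false

namespace Cfsg.Agent.Lib.Helper22.OF4
open Cfsg.Lie Matrix Cfsg.Agent.Lib.Helper22 Cfsg.Agent.Lib.Helper23 Cfsg.Agent.Lib.Helper45
open Cfsg.Agent.Lib.Helper45.AutAbs Cfsg.Agent.Lib.Helper23.TwAut

variable {K : Type*} [Field K] [CharP K 2] [Fintype K] {m : ℕ}
  (b : Bundle chevF4 K)

omit [CharP K 2] [Fintype K] in
/-- two words commute when their letters do -/
theorem comm_W_of_letters (hA : AddFact chevF4 K) (w₁ w₂ : List (ℕ × K))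
    (h : ∀ p ∈ w₁, ∀ q ∈ w₂, Commute (hA.X p.1 p.2) (hA.X q.1 q.2)) : Commute (hA.W w₁) (hA.W w₂) := by
  unfold AddFact.W
  refine Commute.list_prod_left _ _ ?_
  intro x hx
  refine Commute.list_prod_right _ _ ?_
  intro y hy
  obtain ⟨p, hp, rfl⟩ := List.mem_map.1 hx
  obtain ⟨q, hq, rfl⟩ := List.mem_map.1 hy
  exact h p hp q hq

/-- [COMM] -/
theorem f4_comm_ab (t u s : K) : xa b.hA m t u * yb b.hA m s = yb b.hA m s * xa b.hA m t u := by
  apply Subtype.ext
  refine comm_W_of_letters b.hA _ _ ?_
  intro p hp q hq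
  simp only [clsW, pairW, List.mem_cons, List.not_mem_nil, or_false] at hp hq
  rcases hp with rfl | rfl | rfl | rfl <;> rcases hq with rfl | rfl
  · exact f4_commP b.hA 27 14 (by decide) (by decide) (by decide +kernel) _ _
  · exact f4_commP b.hA 27 23 (by decide) (by decide) (by decide +kernel) _ _
  · exact f4_commP b.hA 25 14 (by decide) (by decide) (by decide +kernel) _ _
  · exact f4_commP b.hA 25 23 (by decide) (by decide) (by decide +kernel) _ _
  · exact f4_commP b.hA 28 14 (by decide) (by decide) (by decide +kernel) _ _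
  · exact f4_commP b.hA 28 23 (by decide) (by decide) (by decide +kernel) _ _
  · exact f4_commP b.hA 30 14 (by decide) (by decide) (by decide +kernel) _ _
  · exact f4_commP b.hA 30 23 (by decide) (by decide) (by decide +kernel) _ _

theorem f4_comm_ba (t u s : K) : xb b.hA m s * ya b.hA m t u = ya b.hA m t u * xb b.hA m s := by
  apply Subtype.ext
  refine comm_W_of_letters b.hA _ _ ?_
  intro p hp q hq
  simp only [clsW, pairW, List.mem_cons, List.not_mem_nil, or_false] at hp hq
  rcases hp with rfl | rfl <;> rcases hq with rfl | rfl | rfl | rfl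
  · exact f4_commP b.hA 33 20 (by decide) (by decide) (by decide +kernel) _ _
  · exact f4_commP b.hA 33 22 (by decide) (by decide) (by decide +kernel) _ _
  · exact f4_commP b.hA 33 19 (by decide) (by decide) (by decide +kernel) _ _
  · exact f4_commP b.hA 33 17 (by decide) (by decide) (by decide +kernel) _ _
  · exact f4_commP b.hA 24 20 (by decide) (by decide) (by decide +kernel) _ _
  · exact f4_commP b.hA 24 22 (by decide) (by decide) (by decide +kernel) _ _
  · exact f4_commP b.hA 24 19 (by decide) (by decide) (by decide +kernel) _ _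
  · exact f4_commP b.hA 24 17 (by decide) (by decide) (by decide +kernel) _ _

end Cfsg.Agent.Lib.Helper22.OF4
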