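import Cfsg.Agent.Lib.Helper22.OF4Defs
import Cfsg.Agent.Lib.Helper23.TwAutP

/-! ladder OF4, rung N0 -/

set_option autoImplicit false

namespace Cfsg.Agent.Lib.Helper22.OF4
open Cfsg.Lie Matrix Cfsg.Agent.Lib.Helper22 Cfsg.Agent.Lib.Helper23 Cfsg.Agent.Lib.Helper45
open Cfsg.Agent.Lib.Helper45.AutAbs Cfsg.Agent.Lib.Helper23.TwAut

variable {K : Type*} [Field K] [CharP K 2] [Fintype K] {m : ℕ}
  (b : Bundle chevF4 K)

/-- the list of orbit words of the longest element -/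
def n0L : List (List ℕ) := (List.replicate 4 [[0, 3], [1, 2, 1, 2]]).flatten

theorem n0L_mem : ∀ ω ∈ n0L, ω ∈ f4Orbs := by decide +kernel

theorem n0L_rank : ∀ i ∈ n0L.flatten, i < chevF4.rank := by decide +kernel

theorem n0L_opp : ∀ r < chevF4.nroots, chevF4.IsPosRoot r → chevF4.IsNegRoot (wact chevF4 n0L.flatten r) := by
  decide +kernel

theorem n0L_vals : wact chevF4 n0L.flatten 14 = 33 ∧ wact chevF4 n0L.flatten 23 = 24 ∧
    wact chevF4 n0L.flatten 20 = 27 ∧ wact chevF4 n0L.flatten 22 = 25 ∧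
    wact chevF4 n0L.flatten 19 = 28 ∧ wact chevF4 n0L.flatten 17 = 30 := by
  decide +kernel

omit [Fintype K] in
/-- conjugation of a root element by a word, characteristic 2 -/
theorem n0_conj_X {w : List ℕ} (hw : ∀ i ∈ w, i < chevF4.rank) {s : ℕ} (hs : s < chevF4.nroots) (t : K) :
    b.hA.nword w * b.hA.X s t * (b.hA.nword w)⁻¹ = b.hA.X (wact chevF4 w s) t := by
  obtain ⟨ε, hε, h1, _⟩ := b.hA.nword_conj b.hR b.hN hw hs
  have hε1 : ε = 1 := by
    rcases hε with rfl | rfl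
    · rfl
    · exact CharTwo.neg_eq _
  rw [h1, hε1, one_mul]

/-- [N0] -/
theorem f4_n0 : ∃ n0 : ↥(twistedF4 K (2 ^ m)), Mp (cj n0) (UU K m) (VV K m) ∧ Mp (cj n0) (VV K m) (UU K m) ∧
    (∀ t, n0 * yb b.hA m t * n0⁻¹ = xb b.hA m t) ∧ ∀ t u, n0 * ya b.hA m t u * n0⁻¹ = xa b.hA m t u := by
  refine ⟨⟨b.hA.nword n0L.flatten, f4_nword_flatten_mem b.hA m n0L n0L_mem⟩, ?_, ?_, ?_, ?_⟩
  · have h := (cmp_opp b n0L_rank (one_mem _) (fun r hr => n0L_opp r hr.1 hr)).1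
    rw [mul_one] at h
    exact mp_of_cmpT h
  · have h := (cmp_opp b n0L_rank (one_mem _) (fun r hr => n0L_opp r hr.1 hr)).2
    rw [mul_one] at h
    exact mp_of_cmpT h
  · intro t
    apply Subtype.ext
    obtain ⟨v1, v2, -, -, -, -⟩ := n0L_vals
    show b.hA.nword n0L.flatten * b.hA.W (pairW 14 23 (f4Th K m) t) * (b.hA.nword n0L.flatten)⁻¹ =
      b.hA.W (pairW 33 24 (f4Th K m) t)
    rw [conj_W]
    simp only [pairW, AddFact.W, List.map_cons, List.map_nil]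
    rw [n0_conj_X b n0L_rank (by decide), n0_conj_X b n0L_rank (by decide), v1, v2]
  · intro t u
    apply Subtype.ext
    obtain ⟨-, -, v1, v2, v3, v4⟩ := n0L_vals
    show b.hA.nword n0L.flatten * b.hA.W (clsW 20 22 19 17 (f4Th K m) (f4Ps K m) t u) *
      (b.hA.nword n0L.flatten)⁻¹ = b.hA.W (clsW 27 25 28 30 (f4Th K m) (f4Ps K m) t u)
    rw [conj_W]
    simp only [clsW, AddFact.W, List.map_cons, List.map_nil]
    rw [n0_conj_X b n0L_rank (by decide), n0_conj_X b n0L_rank (by decide),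
      n0_conj_X b n0L_rank (by decide), n0_conj_X b n0L_rank (by decide), v1, v2, v3, v4]

end Cfsg.Agent.Lib.Helper22.OF4
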