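import Cfsg.Agent.Lib.Helper22.OF4Defs

/-! ladder OF4, rung NAE -/

set_option autoImplicit false

namespace Cfsg.Agent.Lib.Helper22.OF4
open Cfsg.Lie Matrix Cfsg.Agent.Lib.Helper22 Cfsg.Agent.Lib.Helper23 Cfsg.Agent.Lib.Helper45
open Cfsg.Agent.Lib.Helper45.AutAbs Cfsg.Agent.Lib.Helper23.TwAut

variable {K : Type*} [Field K] [CharP K 2] [Fintype K] {m : ℕ}
  (b : Bundle chevF4 K)

omit [Fintype K] in
/-- second expression of the representative of `w_{J₂}`. -/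
theorem nae_aux (hA : AddFact chevF4 K) (Θ Ψ : K →+* K) :
    hA.W (clsW 27 25 28 30 Θ Ψ 1 0) * hA.W (clsW 20 22 19 17 Θ Ψ 0 1) * hA.W (clsW 27 25 28 30 Θ Ψ 1 1) =
      hA.nword [1, 2, 1, 2] := by
  have h := W_eq_of_checkIdNP tbF4_valid 2 hA
    (w1 := [(27, ⟨2, 0, 0, 0, 0⟩), (25, ⟨2, 0, 0, 0, 0⟩), (28, ⟨2, 0, 0, 0, 0⟩), (19, ⟨2, 0, 0, 0, 0⟩),
      (17, ⟨2, 0, 0, 0, 0⟩), (27, ⟨2, 0, 0, 0, 0⟩), (25, ⟨2, 0, 0, 0, 0⟩), (30, ⟨2, 0, 0, 0, 0⟩)])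
    (w2 := [(27, ⟨2, 0, 0, 0, 0⟩), (20, ⟨3, 0, 0, 0, 0⟩), (27, ⟨2, 0, 0, 0, 0⟩),
      (25, ⟨2, 0, 0, 0, 0⟩), (22, ⟨3, 0, 0, 0, 0⟩), (25, ⟨2, 0, 0, 0, 0⟩),
      (27, ⟨2, 0, 0, 0, 0⟩), (20, ⟨3, 0, 0, 0, 0⟩), (27, ⟨2, 0, 0, 0, 0⟩),
      (25, ⟨2, 0, 0, 0, 0⟩), (22, ⟨3, 0, 0, 0, 0⟩), (25, ⟨2, 0, 0, 0, 0⟩)])
    (by decide) (by decide) (by decide +kernel) (envTU 0 0)
  have e1 : Mono.eval (envTU (0 : K) 0) ⟨2, 0, 0, 0, 0⟩ = 1 := by simp [Mono.eval, dc_two]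
  have e2 : Mono.eval (envTU (0 : K) 0) ⟨3, 0, 0, 0, 0⟩ = -1 := by simp [Mono.eval, dc_three]
  simp only [AddFact.W, List.map_cons, List.map_nil, List.prod_cons, List.prod_nil, mul_one, e1, e2] at h
  obtain ⟨-, f1, f2, -⟩ := f4_nn hA
  have h11 : (1 : K) + 1 = 0 := CharTwo.add_self_eq_zero 1
  simp only [AddFact.nword_cons, AddFact.nword_nil, mul_one, f1, f2, clsW, AddFact.W, List.map_cons,
    List.map_nil, List.prod_cons, List.prod_nil, map_one, map_zero, mul_zero, zero_add, add_zero, h11,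
    hA.X_zero, one_mul]
  simp only [mul_assoc] at h ⊢
  exact h

/-- [NAE] -/
theorem f4_na_eq : na b.hA m = xa b.hA m 1 0 * ya b.hA m 0 1 * xa b.hA m 1 1 := by
  apply Subtype.ext
  exact (nae_aux b.hA (f4Th K m) (f4Ps K m)).symm

end Cfsg.Agent.Lib.Helper22.OF4
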