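import Cfsg.Agent.Lib.Helper22.OF4Defs
import Cfsg.Agent.Lib.Helper23.TwAutP

/-! ladder OF4, rung NBV -/

set_option autoImplicit false

namespace Cfsg.Agent.Lib.Helper22.OF4
open Cfsg.Lie Matrix Cfsg.Agent.Lib.Helper22 Cfsg.Agent.Lib.Helper23 Cfsg.Agent.Lib.Helper45
open Cfsg.Agent.Lib.Helper45.AutAbs Cfsg.Agent.Lib.Helper23.TwAut

variable {K : Type*} [Field K] [CharP K 2] [Fintype K] {m : ℕ}
  (b : Bundle chevF4 K)

omit [CharP K 2] [Fintype K] in
/-- a word moving a positive root to a negative one is not in `B V`. -/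
theorem nbv_aux {w : List ℕ} (hw : ∀ i ∈ w, i < chevF4.rank) {r : ℕ} (hr : chevF4.IsPosRoot r)
    (hneg : chevF4.IsNegRoot (wact chevF4 w r)) {x v : GL chevF4.Idx K}
    (hx : x ∈ chevF4.borelSubgroup K) (hv : v ∈ chevF4.negUnipotent K) : b.hA.nword w ≠ x * v := by
  intro e
  have hn : b.hA.nword w ∈ chevF4.monomialSubgroup K := b.hA.nword_mem_mono b.hR hw
  have e' : (b.hA.nword w)⁻¹ = v⁻¹ * x⁻¹ := by rw [e, _root_.mul_inv_rev]
  have hd := mono_VB memF4 (inv_mem hn) (inv_mem hv) (inv_mem hx) e'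
  have hd' : b.hA.nword w ∈ chevF4.diagonalSubgroup K := by
    have := inv_mem hd
    rwa [inv_inv] at this
  exact (acts_nword b hw).not_mem_borel b hr hneg (AddFact.diag_le_borel hd')

/-- [NBV] -/
theorem f4_na_ne (x v : ↥(twistedF4 K (2 ^ m))) (hx : x ∈ BB K m) (hv : v ∈ VV K m) : na b.hA m ≠ x * v := by
  intro e
  have e' := congrArg Subtype.val e
  exact nbv_aux b (w := [1, 2, 1, 2]) (by decide) (r := 27) (by decide +kernel) (by decide +kernel)
    (mem_sT.1 hx) (mem_sT.1 hv) e'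

theorem f4_nb_ne (x v : ↥(twistedF4 K (2 ^ m))) (hx : x ∈ BB K m) (hv : v ∈ VV K m) : nb b.hA m ≠ x * v := by
  intro e
  have e' := congrArg Subtype.val e
  exact nbv_aux b (w := [0, 3]) (by decide) (r := 33) (by decide +kernel) (by decide +kernel)
    (mem_sT.1 hx) (mem_sT.1 hv) e'

end Cfsg.Agent.Lib.Helper22.OF4
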