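import Mathlib

/-!
# An integer lemma on families with small variance
-/

set_option autoImplicit false

namespace Cfsg.Agent.Lib.Helper31

theorem intfam_single {I : Type*} [Fintype I] [DecidableEq I] (b : I → ℤ) (ε : ℤ)
    (hε : ε ≠ 0) (hs : ∑ i, b i = ε) (hq : ∑ i, b i ^ 2 ≤ 1) :
    ∃ μ : I, b μ = ε ∧ ∀ i, i ≠ μ → b i = 0 := by
  have hex : ∃ μ, b μ ≠ 0 := by
    by_contra hcon
    push Not at hcon
    apply hε
    rw [← hs]
    exact Finset.sum_eq_zero fun i _ => hcon i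
  obtain ⟨μ, hμ⟩ := hex
  have h1 : 1 ≤ b μ ^ 2 := by
    have : 0 < b μ ^ 2 := by positivity
    omega
  have hz : ∀ i, i ≠ μ → b i = 0 := by
    intro i hi
    by_contra hne
    have h2 : 1 ≤ b i ^ 2 := by
      have : 0 < b i ^ 2 := by positivity
      omega
    have h3 : b μ ^ 2 + b i ^ 2 ≤ ∑ j, b j ^ 2 := by
      have : ∑ j ∈ ({μ, i} : Finset I), b j ^ 2 ≤ ∑ j, b j ^ 2 :=
        Finset.sum_le_sum_of_subset_of_nonneg (Finset.subset_univ _) (fun j _ _ => by positivity)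
      rwa [Finset.sum_pair (Ne.symm hi)] at this
    omega
  refine ⟨μ, ?_, hz⟩
  rw [← hs]
  exact (Finset.sum_eq_single μ (fun i _ hi => hz i hi) (fun h => absurd (Finset.mem_univ _) h)).symm

theorem intfam_shift {I : Type*} [Fintype I] (a : I → ℤ) (m : ℤ)
    (hm : (Fintype.card I : ℤ) = m)
    (h : m * ∑ i, a i ^ 2 ≤ (∑ i, a i) ^ 2 + m - 1) (c : ℤ) :
    ∑ i, (a i - c) = (∑ i, a i) - c * m ∧
    m * ∑ i, (a i - c) ^ 2 ≤ ((∑ i, a i) - c * m) ^ 2 + m - 1 := by
  have h1 : ∑ i, (a i - c) = (∑ i, a i) - c * m := by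
    rw [Finset.sum_sub_distrib, Finset.sum_const, Finset.card_univ, nsmul_eq_mul, hm, mul_comm]
  have h2 : ∑ i, (a i - c) ^ 2 = ∑ i, a i ^ 2 - 2 * c * ∑ i, a i + c ^ 2 * m := by
    have : ∀ i, (a i - c) ^ 2 = a i ^ 2 - 2 * c * a i + c ^ 2 := fun i => by ring
    simp only [this]
    rw [Finset.sum_add_distrib, Finset.sum_sub_distrib, Finset.sum_const, Finset.card_univ,
      nsmul_eq_mul, hm, ← Finset.mul_sum]
    ring
  refine ⟨h1, ?_⟩
  rw [h2]
  nlinarith

/-- A non-constant integer family on `m ≥ 2` points with `m Σ a² ≤ (Σ a)² + m - 1` is constant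
except at one point, where it differs by `±1`. -/
theorem intfam_main {I : Type*} [Fintype I] [DecidableEq I] (a : I → ℤ) (m : ℤ)
    (hm : (Fintype.card I : ℤ) = m) (hm2 : 2 ≤ m)
    (h : m * ∑ i, a i ^ 2 ≤ (∑ i, a i) ^ 2 + m - 1) (hnc : ¬ ∃ c, ∀ i, a i = c) :
    ∃ (μ : I) (c ε : ℤ), (ε = 1 ∨ ε = -1) ∧ a μ = c + ε ∧ (∀ i, i ≠ μ → a i = c) ∧
      ∑ i, a i = c * m + ε := by
  set d := ∑ i, a i with hd
  set c₀ := d / m with hc₀
  set D := d % m with hD
  have hm0 : 0 < m := by omega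
  have hD0 : 0 ≤ D := Int.emod_nonneg _ hm0.ne'
  have hDm : D < m := Int.emod_lt_of_pos _ hm0
  have hdD : d - c₀ * m = D := by
    have := Int.emod_add_mul_ediv d m
    rw [hD, hc₀]; linarith
  obtain ⟨hs, hq⟩ := intfam_shift a m hm h c₀
  rw [← hd, hdD] at hs hq
  have hge : ∑ i, (a i - c₀) ≤ ∑ i, (a i - c₀) ^ 2 := by
    apply Finset.sum_le_sum
    intro i _
    have : 0 ≤ (a i - c₀) * ((a i - c₀) - 1) := by
      rcases le_or_gt (a i - c₀) 0 with h0 | h0
      · exact mul_nonneg_of_nonpos_of_nonpos h0 (by omega)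
      · exact mul_nonneg h0.le (by omega)
    nlinarith
  rw [hs] at hge
  have hcase : D = 0 ∨ D = 1 ∨ D = m - 1 := by
    by_contra hcon
    push Not at hcon
    obtain ⟨h0, h1, h2⟩ := hcon
    have h3 : 2 ≤ D := by omega
    have h4 : D ≤ m - 2 := by omega
    have h5 : m * D ≤ D ^ 2 + m - 1 := le_trans (mul_le_mul_of_nonneg_left hge hm0.le) hq
    nlinarith
  rcases hcase with h0 | h1 | h2
  · exfalso
    rw [h0] at hq
    have h3 : ∑ i, (a i - c₀) ^ 2 ≤ 0 := by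
      by_contra hcon
      push Not at hcon
      nlinarith
    apply hnc
    refine ⟨c₀, fun i => ?_⟩
    have h4 := (Finset.sum_eq_zero_iff_of_nonneg (fun i _ => by positivity)).1
      (le_antisymm h3 (Finset.sum_nonneg fun i _ => by positivity)) i (Finset.mem_univ i)
    have h5 : a i - c₀ = 0 := by simpa using h4
    omega
  · rw [h1] at hq hs
    have h3 : ∑ i, (a i - c₀) ^ 2 ≤ 1 := by
      by_contra hcon
      push Not at hcon
      nlinarith
    obtain ⟨μ, hμ, hz⟩ := intfam_single (fun i => a i - c₀) 1 one_ne_zero hs h3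
    refine ⟨μ, c₀, 1, Or.inl rfl, by omega, fun i hi => ?_, by omega⟩
    have := hz i hi
    omega
  · obtain ⟨hs', hq'⟩ := intfam_shift a m hm h (c₀ + 1)
    have hdD' : d - (c₀ + 1) * m = -1 := by
      have : d - (c₀ + 1) * m = (d - c₀ * m) - m := by ring
      rw [this, hdD, h2]; ring
    rw [← hd, hdD'] at hs' hq'
    have h3 : ∑ i, (a i - (c₀ + 1)) ^ 2 ≤ 1 := by
      by_contra hcon
      push Not at hcon
      nlinarith
    obtain ⟨μ, hμ, hz⟩ := intfam_single (fun i => a i - (c₀ + 1)) (-1) (by norm_num) hs' h3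
    refine ⟨μ, c₀ + 1, -1, Or.inr rfl, by omega, fun i hi => ?_, by linarith⟩
    have := hz i hi
    omega

end Cfsg.Agent.Lib.Helper31
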