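import Mathlib
import Cfsg.Agent.Lib.Helper31.IntFam
import Cfsg.Agent.Lib.Helper77.GlaubSetup
import Cfsg.Agent.Lib.Helper79.Central

/-!
# Characters of abelian groups that are small off the identity
-/

set_option autoImplicit false

namespace Cfsg.Agent.Lib.Helper31

open Cfsg Cfsg.Agent.Lib.Helper20 Cfsg.Agent.Lib.Helper19 Cfsg.Agent.Lib.Helper79
open scoped ComplexConjugate

variable {T : Type*} [Group T] [Fintype T]

theorem sum_irr_apply_of_comm [DecidableEq T] [Fintype (IrrCharacter T)] (hc : ∀ a b : T, a * b = b * a) (x : T) :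
    ∑ l : IrrCharacter T, (l : T → ℂ) x = if x = 1 then (Nat.card T : ℂ) else 0 := by
  set ρ : T → ℂ := fun x => if x = 1 then (Nat.card T : ℂ) else 0 with hρ
  have hcl : IsClassFunction T ρ := by
    intro g h
    have : h * g * h⁻¹ = g := by rw [hc h g, mul_assoc, mul_inv_cancel, mul_one]
    rw [this]
  have hin : ∀ l : IrrCharacter T, classInner ρ (l : T → ℂ) = 1 := by
    intro l
    unfold classInner
    rw [Finset.sum_eq_single (1 : T)]
    · rw [IsIrrCharacter.one_eq_one_of_comm l.2 hc]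
      simp only [hρ, if_true, map_one, mul_one]
      exact inv_mul_cancel₀ card_ne_zero_complex
    · intro b _ hb
      simp [hρ, hb]
    · intro h; exact absurd (Finset.mem_univ _) h
  have h := eq_sum_classInner_smul (G := T) hcl
  have h2 := congrFun h x
  simp only [hin, one_smul, Finset.sum_apply] at h2
  rw [← h2]

theorem card_irr_of_comm [Fintype (IrrCharacter T)] (hc : ∀ a b : T, a * b = b * a) :
    Fintype.card (IrrCharacter T) = Nat.card T := by
  classical
  have h := sum_irr_apply_of_comm hc (1 : T)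
  simp only [if_true] at h
  have h2 : ∑ l : IrrCharacter T, (l : T → ℂ) 1 = (Fintype.card (IrrCharacter T) : ℂ) := by
    rw [Finset.sum_congr rfl (fun l _ => IsIrrCharacter.one_eq_one_of_comm l.2 hc)]
    simp
  rw [h2] at h
  exact_mod_cast h

/-- A character of an abelian group of order `m ≥ 2` whose values off the identity have
absolute value at most one and which does not vanish off the identity is `c ρ ± μ`. -/
theorem abel_char_structure (hc : ∀ a b : T, a * b = b * a)
    (hm2 : 2 ≤ Nat.card T) {f : T → ℂ} (hf : IsCharacter T f)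
    (hle : ∀ x : T, x ≠ 1 → ‖f x‖ ≤ 1) (s : T) (hs : s ≠ 1) (hfs : f s ≠ 0) :
    ∃ (μ : T → ℂ) (c : ℕ) (ε : ℤ), IsIrrCharacter T μ ∧ (ε = 1 ∨ ε = -1) ∧
      (∀ x : T, x ≠ 1 → f x = (ε : ℂ) * μ x) ∧ f 1 = (c : ℂ) * (Nat.card T : ℂ) + (ε : ℂ) := by
  classical
  have := finite_irrCharacter (G := T)
  have := Fintype.ofFinite (IrrCharacter T)
  have hcl := isClassFunction_of_isCharacter hf
  have hex : ∀ l : IrrCharacter T, ∃ n : ℕ, classInner f (l : T → ℂ) = n :=
    fun l => isCharacter_classInner_nat hf l.2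
  choose a ha using hex
  have hexp : f = ∑ l : IrrCharacter T, (a l : ℂ) • (l : T → ℂ) := by
    have h := eq_sum_classInner_smul (G := T) hcl
    simp only [ha] at h
    exact h
  have hval : ∀ x : T, f x = ∑ l : IrrCharacter T, (a l : ℂ) * (l : T → ℂ) x := by
    intro x
    have := congrFun hexp x
    simpa [Finset.sum_apply] using this
  have hd : f 1 = ((∑ l : IrrCharacter T, a l : ℕ) : ℂ) := by
    rw [hval 1]
    push_cast
    exact Finset.sum_congr rfl fun l _ => by
      rw [IsIrrCharacter.one_eq_one_of_comm l.2 hc, mul_one]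
  have hP : classInner f f = ((∑ l : IrrCharacter T, a l ^ 2 : ℕ) : ℂ) := by
    conv_lhs => rw [hexp]
    rw [classInner_sum_left]
    push_cast
    refine Finset.sum_congr rfl fun l _ => ?_
    rw [classInner_smul_left, ← hexp, ← classInner_conj_symm, ha]
    simp [sq]
  set m := Nat.card T with hm
  have hm0 : (0 : ℝ) < m := by
    have : 0 < m := by omega
    exact_mod_cast this
  have hsum : ∑ x : T, ‖f x‖ ^ 2 ≤ ((∑ l : IrrCharacter T, a l : ℕ) : ℝ) ^ 2 + m - 1 := by
    rw [← Finset.add_sum_erase _ _ (Finset.mem_univ (1 : T))]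
    have h1 : ‖f 1‖ ^ 2 = ((∑ l : IrrCharacter T, a l : ℕ) : ℝ) ^ 2 := by
      rw [hd, Complex.norm_natCast]
    have h2 : ∑ x ∈ Finset.univ.erase (1 : T), ‖f x‖ ^ 2 ≤ (m : ℝ) - 1 := by
      calc ∑ x ∈ Finset.univ.erase (1 : T), ‖f x‖ ^ 2
          ≤ ∑ x ∈ Finset.univ.erase (1 : T), (1 : ℝ) := by
            apply Finset.sum_le_sum
            intro x hx
            have := hle x (Finset.ne_of_mem_erase hx)
            have h0 := norm_nonneg (f x)
            nlinarith
        _ = (m : ℝ) - 1 := by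
            rw [Finset.sum_const, Finset.card_erase_of_mem (Finset.mem_univ _), Finset.card_univ,
              nsmul_eq_mul, mul_one, ← Nat.card_eq_fintype_card, ← hm, Nat.cast_sub (by omega)]
            simp
    rw [h1]; linarith
  have hkeyR : (m : ℝ) * ((∑ l : IrrCharacter T, a l ^ 2 : ℕ) : ℝ) ≤
      ((∑ l : IrrCharacter T, a l : ℕ) : ℝ) ^ 2 + m - 1 := by
    have h1 := Cfsg.Agent.Lib.Helper32.classInner_self_eq f
    rw [hP] at h1
    have h2 : ((∑ l : IrrCharacter T, a l ^ 2 : ℕ) : ℝ) = (m : ℝ)⁻¹ * ∑ x : T, ‖f x‖ ^ 2 := by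
      exact_mod_cast h1
    rw [h2, ← mul_assoc, mul_inv_cancel₀ hm0.ne', one_mul]
    exact hsum
  have hkeyZ : (m : ℤ) * ∑ l : IrrCharacter T, (a l : ℤ) ^ 2 ≤
      (∑ l : IrrCharacter T, (a l : ℤ)) ^ 2 + (m : ℤ) - 1 := by
    have : ((m : ℤ) * ∑ l : IrrCharacter T, (a l : ℤ) ^ 2 : ℝ) ≤
      (((∑ l : IrrCharacter T, (a l : ℤ)) ^ 2 + (m : ℤ) - 1 : ℤ) : ℝ) := by
      push_cast
      push_cast at hkeyR
      exact hkeyR
    exact_mod_cast this
  have hnc : ¬ ∃ c : ℤ, ∀ l : IrrCharacter T, (a l : ℤ) = c := by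
    rintro ⟨c, hcst⟩
    apply hfs
    rw [hval s]
    have : ∀ l : IrrCharacter T, (a l : ℂ) = (c : ℂ) := fun l => by
      have := hcst l
      exact_mod_cast congrArg (fun z : ℤ => (z : ℂ)) this
    simp only [this]
    rw [← Finset.mul_sum, sum_irr_apply_of_comm hc, if_neg hs, mul_zero]
  obtain ⟨μ, c, ε, hε, hμ, hoth, htot⟩ := intfam_main (fun l : IrrCharacter T => (a l : ℤ)) (m : ℤ)
    (by rw [card_irr_of_comm hc]) (by exact_mod_cast hm2) hkeyZ hnc
  -- c is a natural number
  have hcard2 : 2 ≤ Fintype.card (IrrCharacter T) := by rw [card_irr_of_comm hc]; exact hm2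
  obtain ⟨l₀, hl₀⟩ : ∃ l₀ : IrrCharacter T, l₀ ≠ μ := by
    have : Nontrivial (IrrCharacter T) := Fintype.one_lt_card_iff_nontrivial.1 (by omega)
    exact exists_ne μ
  have hc0 : (a l₀ : ℤ) = c := hoth l₀ hl₀
  refine ⟨μ, a l₀, ε, μ.2, hε, ?_, ?_⟩
  · intro x hx
    rw [hval x]
    have hdec : ∀ l : IrrCharacter T, (a l : ℂ) * (l : T → ℂ) x =
        (c : ℂ) * (l : T → ℂ) x + (if l = μ then (ε : ℂ) * (μ : T → ℂ) x else 0) := by
      intro l
      by_cases hl : l = μ
      · subst hl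
        rw [if_pos rfl]
        have : (a l : ℂ) = (c : ℂ) + (ε : ℂ) := by exact_mod_cast congrArg (fun z : ℤ => (z : ℂ)) hμ
        rw [this]; ring
      · rw [if_neg hl, add_zero]
        have : (a l : ℂ) = (c : ℂ) := by exact_mod_cast congrArg (fun z : ℤ => (z : ℂ)) (hoth l hl)
        rw [this]
    simp only [hdec]
    rw [Finset.sum_add_distrib, ← Finset.mul_sum, sum_irr_apply_of_comm hc, if_neg hx, mul_zero,
      zero_add, Finset.sum_ite_eq' Finset.univ μ]
    simp
  · rw [hd]
    have h1 : ((∑ l : IrrCharacter T, a l : ℕ) : ℤ) = (a l₀ : ℤ) * m + ε := by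
      push_cast
      rw [hc0]
      exact htot
    exact_mod_cast congrArg (fun z : ℤ => (z : ℂ)) h1

end Cfsg.Agent.Lib.Helper31
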