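import Mathlib
import Cfsg.Agent.Lib.Helper31.AbelChar

/-!
# Coprime cyclic action in which all non-identity elements have the same fixed points
-/

set_option autoImplicit false

namespace Cfsg.Agent.Lib.Helper31

open Subgroup Cfsg Cfsg.Agent.Lib.Helper20 Cfsg.Agent.Lib.Helper19 Cfsg.Agent.Lib.Helper79
  Cfsg.Agent.Lib.Helper77
open scoped ComplexConjugate

variable {Γ : Type*} [Group Γ] [Fintype Γ]

theorem copcyc_core (G : Subgroup Γ) [hGn : G.Normal] [Fintype G] (s : Γ) (hs1 : s ≠ 1)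
    (hcop : (Nat.card G).Coprime (Nat.card (zpowers s)))
    (C : Subgroup Γ) [Fintype C] (hCs : ∀ c ∈ C, c * s = s * c)
    (hfpf : ∀ x ∈ zpowers s, x ≠ 1 → G ⊓ Subgroup.centralizer ({x} : Set Γ) = C)
    {χh : Γ → ℂ} (hirr : IsIrrCharacter Γ χh) (hr : IsIrrCharacter G (fun g : G => χh g))
    {β : C → ℂ} (hβi : IsIrrCharacter C β) (ε₀ : ℤ) (hε₀ : ε₀ = 1 ∨ ε₀ = -1)
    (hβ : ∀ c : C, χh ((c : Γ) * s) = (ε₀ : ℂ) * β c) :
    ∃ ε : ℤ, (ε = 1 ∨ ε = -1) ∧
      (∃ μ : zpowers s → ℂ, IsCharacter (zpowers s) μ ∧ μ 1 = 1 ∧ (∀ x, μ x * μ x = 1) ∧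
        ∀ c : C, ∀ x : zpowers s, x ≠ 1 → χh ((c : Γ) * x) = (ε : ℂ) * β c * μ x) ∧
      (∃ ϑ : C → ℂ, IsCharacter C ϑ ∧
        ∀ c : C, χh (c : Γ) = (Nat.card (zpowers s) : ℂ) * ϑ c + (ε : ℂ) * β c) := by
  classical
  have : Fintype (zpowers s) := Fintype.ofFinite _
  have hch := isCharacter_of_isIrrCharacter hirr
  have hcl := isClassFunction_of_isCharacter hch
  have hβc := isCharacter_of_isIrrCharacter hβi
  have hcomm : ∀ a b : zpowers s, a * b = b * a := by
    intro a b
    obtain ⟨i, hi⟩ := mem_zpowers_iff.1 a.2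
    obtain ⟨j, hj⟩ := mem_zpowers_iff.1 b.2
    apply Subtype.ext
    show (a : Γ) * (b : Γ) = (b : Γ) * (a : Γ)
    rw [← hi, ← hj, ← zpow_add, ← zpow_add, add_comm]
  set m := Nat.card (zpowers s) with hm
  have hm2 : 2 ≤ m := by
    rw [hm, Nat.card_zpowers]
    have h1 : orderOf s ≠ 1 := fun h => hs1 (orderOf_eq_one_iff.1 h)
    have h0 := orderOf_pos s
    omega
  have hm0 : (m : ℂ) ≠ 0 := by
    have : m ≠ 0 := by omega
    exact_mod_cast this
  set φ : zpowers s → C → ℂ := fun t c => χh ((c : Γ) * (t : Γ)) with hφ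
  have hnorm1 : ∀ t : zpowers s, t ≠ 1 → classInner (φ t) (φ t) = 1 := by
    intro t ht
    have ht' : (t : Γ) ≠ 1 := fun h => ht (Subtype.ext h)
    have hn : (t : Γ) ∈ Subgroup.normalizer (G : Set Γ) := by rw [normalizer_eq_top]; trivial
    have hco : (orderOf (t : Γ)).Coprime (Nat.card G) :=
      (hcop.symm).coprime_dvd_left (Subgroup.orderOf_dvd_natCard _ t.2)
    rw [hφ]
    simp only
    rw [classInner_tw G (t : Γ) hn hco C (hfpf t t.2 ht').symm χh χh hcl hcl,
      navg_ext_self G hirr hr]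
  -- multiplicity characters
  have hmc : ∀ {γ : C → ℂ}, IsCharacter C γ → IsCharacter (zpowers s) (multChar C s χh γ) :=
    fun hγ => isCharacter_multChar C s hCs hch hγ
  set f := multChar C s χh β with hf
  have hfv : ∀ t, f t = classInner (φ t) β := fun t => rfl
  have hpyth : ∀ t : zpowers s, t ≠ 1 →
      classInner (φ t - f t • β) (φ t - f t • β) = 1 - f t * conj (f t) := by
    intro t ht
    rw [classInner_sub_left, classInner_sub_right, classInner_sub_right, classInner_smul_left,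
      classInner_smul_left, classInner_smul_right, classInner_smul_right, hnorm1 t ht,
      classInner_irr_self hβi, ← classInner_conj_symm (φ t) β, ← hfv t]
    ring
  have hnsq : ∀ z : ℂ, z * conj z = ((‖z‖ ^ 2 : ℝ) : ℂ) := fun z => by
    rw [Complex.mul_conj, Complex.normSq_eq_norm_sq]
  have hle : ∀ t : zpowers s, t ≠ 1 → ‖f t‖ ≤ 1 := by
    intro t ht
    have h1 := Cfsg.Agent.Lib.Helper32.classInner_self_re_nonneg (φ t - f t • β)
    rw [hpyth t ht, hnsq] at h1
    have h2 : (0 : ℝ) ≤ 1 - ‖f t‖ ^ 2 := by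
      have : ((1 : ℂ) - ((‖f t‖ ^ 2 : ℝ) : ℂ)).re = 1 - ‖f t‖ ^ 2 := by
        rw [Complex.sub_re, Complex.one_re, Complex.ofReal_re]
      rwa [this] at h1
    have h0 := norm_nonneg (f t)
    nlinarith
  set s' : zpowers s := ⟨s, mem_zpowers s⟩ with hs'
  have hs'1 : s' ≠ 1 := fun h => hs1 (congrArg Subtype.val h)
  have hε₀0 : (ε₀ : ℂ) ≠ 0 := by rcases hε₀ with h | h <;> rw [h] <;> simp
  have hfs : f s' = (ε₀ : ℂ) := by
    rw [hfv]
    have : φ s' = (ε₀ : ℂ) • β := funext fun c => by simp [hφ, hs', hβ]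
    rw [this, classInner_smul_left, classInner_irr_self hβi, mul_one]
  obtain ⟨μ, c, ε, hμ, hε, hoff₀, hone₀⟩ := abel_char_structure hcomm hm2 (hmc hβc) hle s' hs'1
    (by rw [← hf, hfs]; exact hε₀0)
  have hoff : ∀ x : zpowers s, x ≠ 1 → f x = (ε : ℂ) * μ x := hoff₀
  have hone : f 1 = (c : ℂ) * (m : ℂ) + (ε : ℂ) := hone₀
  have hεsq : (ε : ℂ) * (ε : ℂ) = 1 := by rcases hε with h | h <;> rw [h] <;> simp
  have hφeq : ∀ t : zpowers s, t ≠ 1 → φ t = f t • β := by
    intro t ht
    have h1 : f t * conj (f t) = 1 := by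
      rw [hnsq, hoff t ht, norm_mul, IsIrrCharacter.norm_of_comm hμ hcomm t, mul_one]
      rcases hε with h | h <;> rw [h] <;> simp
    have h2 := hpyth t ht
    rw [h1, sub_self] at h2
    exact sub_eq_zero.1 (Cfsg.Agent.Lib.Helper32.classInner_self_eq_zero h2)
  refine ⟨ε, hε, ⟨μ, isCharacter_of_isIrrCharacter hμ, IsIrrCharacter.one_eq_one_of_comm hμ hcomm,
    ?_, ?_⟩, ?_⟩
  · -- μ² = 1
    have hμs : μ s' * μ s' = 1 := by
      have h1 : (ε₀ : ℂ) = (ε : ℂ) * μ s' := by rw [← hfs]; exact hoff s' hs'1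
      have h2 : μ s' = (ε : ℂ) * (ε₀ : ℂ) := by
        rw [h1, ← mul_assoc, hεsq, one_mul]
      rw [h2]
      have : (ε₀ : ℂ) * (ε₀ : ℂ) = 1 := by rcases hε₀ with h | h <;> rw [h] <;> simp
      calc (ε : ℂ) * ε₀ * (ε * ε₀) = (ε * ε) * (ε₀ * ε₀) := by ring
        _ = 1 := by rw [hεsq, this, one_mul]
    intro x
    obtain ⟨k, hk⟩ := (mem_powers_iff_mem_zpowers (x := s) (y := (x : Γ))).2 x.2
    have hx : x = s' ^ k := Subtype.ext (by simpa [hs'] using hk.symm)
    rw [hx, IsIrrCharacter.pow_of_comm hμ hcomm, ← mul_pow, hμs, one_pow]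
  · intro c x hx
    have := congrFun (hφeq x hx) c
    simp only [hφ, Pi.smul_apply, smul_eq_mul] at this
    rw [this, hoff x hx]
    ring
  · -- the character ϑ
    set res : C → ℂ := fun c => χh (c : Γ) with hres
    have hrescl : IsClassFunction C res := by
      intro g x
      show χh ((x * g * x⁻¹ : C) : Γ) = χh (g : Γ)
      have := hcl (g : Γ) (x : Γ)
      simpa using this
    have hm1 : ∀ γ : C → ℂ, multChar C s χh γ 1 = classInner res γ := by
      intro γ
      show classInner (fun c : C => χh ((c : Γ) * ((1 : zpowers s) : Γ))) γ = classInner res γ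
      simp [hres]
    set ϑ : C → ℂ := (m : ℂ)⁻¹ • (res - (ε : ℂ) • β) with hϑ
    refine ⟨ϑ, ?_, ?_⟩
    · apply isCharacter_of_classInner_nat
      · intro g x
        simp only [hϑ, Pi.smul_apply, Pi.sub_apply, smul_eq_mul]
        rw [hrescl g x, isClassFunction_of_isCharacter hβc g x]
      · intro γ hγ
        rw [hϑ, classInner_smul_left, classInner_sub_left, classInner_smul_left]
        by_cases hγβ : γ = β
        · subst hγβ
          refine ⟨c, ?_⟩
          rw [classInner_irr_self hγ, ← hm1, ← hf, hone]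
          field_simp
          ring
        · rw [classInner_irr_ne hβi hγ (fun h => hγβ h.symm), mul_zero, sub_zero]
          have hγc := isCharacter_of_isIrrCharacter hγ
          obtain ⟨n, hn⟩ := isCharacter_classInner_nat' (hmc hγc)
            (isCharacter_one (G := zpowers s))
          refine ⟨n, ?_⟩
          rw [← hn, ← hm1]
          unfold classInner
          rw [Finset.sum_eq_single (1 : zpowers s)]
          · simp [hm]
          · intro t _ ht
            have : multChar C s χh γ t = 0 := by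
              show classInner (φ t) γ = 0
              rw [hφeq t ht, classInner_smul_left,
                classInner_irr_ne hβi hγ (fun h => hγβ h.symm), mul_zero]
            rw [this, zero_mul]
          · intro h; exact absurd (Finset.mem_univ _) h
    · intro c
      simp only [hϑ, Pi.smul_apply, Pi.sub_apply, smul_eq_mul, hres]
      field_simp
      ring

end Cfsg.Agent.Lib.Helper31
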