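import Cfsg.Agent.Lib.Helper14.PConstrained

set_option autoImplicit false

namespace Cfsg.Agent.Lib.Helper31

open Cfsg.Agent.Lib.Helper14

variable {G : Type*} [Group G]

/-- A Sylow `p`-subgroup lies in every normal subgroup of index prime to `p`. -/
theorem sylow_le_of_normal_of_coprime_index [Finite G] {p : ℕ} [hp : Fact p.Prime] (S : Sylow p G)
    (N : Subgroup G) [N.Normal] (hN : N.index.Coprime p) : (S : Subgroup G) ≤ N := by
  rw [← Subgroup.relIndex_eq_one]
  obtain ⟨n, hn⟩ := IsPGroup.iff_card.mp S.isPGroup'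
  have h1 : N.relIndex (S : Subgroup G) ∣ N.index := Subgroup.relIndex_dvd_index_of_normal N _
  have h2 : N.relIndex (S : Subgroup G) ∣ p ^ n := hn ▸ Subgroup.relIndex_dvd_card N _
  exact Nat.eq_one_of_dvd_coprimes (Nat.Coprime.pow_right n hN) h1 h2

/-- Structure of a group of `p`-length at most one: `O_{p'}(G) S` is normal for a Sylow `p`-subgroup
`S`, and the Frattini argument gives `G = O_{p'}(G) N_G(S)`. -/
theorem plength_one_structure [Finite G] {p : ℕ} [hp : Fact p.Prime] (hpl : Cfsg.PLengthLE p 1 G)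
    (S : Sylow p G) :
    (Cfsg.pPrimeCore p G ⊔ (S : Subgroup G)).Normal ∧
      Cfsg.pPrimeCore p G ⊔ Subgroup.normalizer ((S : Subgroup G) : Set G) = ⊤ := by
  have h3 : (Cfsg.upperPSeries p G 3).1 = ⊤ := hpl
  set U₁ := (Cfsg.upperPSeries p G 1).1 with hU₁
  set U₂ := (Cfsg.upperPSeries p G 2).1 with hU₂
  have e1 := upperPSeries_succ_of_even p G (n := 0) (by simp)
  have e2 := upperPSeries_succ_of_not_even p G (n := 1) (by simp)
  have e3 := upperPSeries_succ_of_even p G (n := 2) (by simp)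
  have c1 : (Nat.card U₁).Coprime p := by
    have h := relIndex_comap_mk' (Cfsg.upperPSeries p G 0).1
      (Cfsg.pPrimeCore p (G ⧸ (Cfsg.upperPSeries p G 0).1))
    rw [← e1] at h
    have h0 : (Cfsg.upperPSeries p G 0).1.relIndex (Cfsg.upperPSeries p G (0 + 1)).1
        = Nat.card (Cfsg.upperPSeries p G (0 + 1)).1 := Subgroup.relIndex_bot_left _
    rw [h0] at h
    rw [hU₁]
    change (Nat.card (Cfsg.upperPSeries p G (0 + 1)).1).Coprime p
    rw [h]
    exact card_pPrimeCore_coprime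
  have c2 : ∃ m : ℕ, U₁.relIndex U₂ = p ^ m := by
    have h := relIndex_comap_mk' U₁ (Cfsg.pCore p (G ⧸ U₁))
    rw [← e2] at h
    obtain ⟨m, hm⟩ := IsPGroup.iff_card.mp (isPGroup_pCore (p := p) (G := G ⧸ U₁))
    exact ⟨m, h.trans hm⟩
  have c3 : U₂.index.Coprime p := by
    have h := relIndex_comap_mk' U₂ (Cfsg.pPrimeCore p (G ⧸ U₂))
    rw [← e3] at h
    change U₂.relIndex (Cfsg.upperPSeries p G 3).1 = _ at h
    rw [h3, Subgroup.relIndex_top_right] at h
    rw [h]
    exact card_pPrimeCore_coprime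
  have hSU : (S : Subgroup G) ≤ U₂ := sylow_le_of_normal_of_coprime_index S U₂ c3
  have hU₁K : U₁ ≤ Cfsg.pPrimeCore p G := le_pPrimeCore inferInstance c1
  obtain ⟨m, hm⟩ := c2
  have hle : U₂ ≤ (S : Subgroup G) ⊔ U₁ := by
    have h := le_sylow_sup_of_relIndex U₂ U₁ hm (S.subtype hSU)
    rwa [Sylow.coe_subtype, Subgroup.map_subgroupOf_eq_of_le hSU] at h
  have hL : Cfsg.pPrimeCore p G ⊔ (S : Subgroup G) = Cfsg.pPrimeCore p G ⊔ U₂ := by
    apply le_antisymm
    · exact sup_le_sup_left hSU _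
    · refine sup_le le_sup_left (hle.trans (sup_le le_sup_right (hU₁K.trans le_sup_left)))
  have hLn : (Cfsg.pPrimeCore p G ⊔ (S : Subgroup G)).Normal := by
    rw [hL]; infer_instance
  refine ⟨hLn, ?_⟩
  have h4 := Sylow.normalizer_sup_eq_top' (N := Cfsg.pPrimeCore p G ⊔ (S : Subgroup G)) S le_sup_right
  rw [eq_top_iff, ← h4]
  exact sup_le le_sup_right (sup_le le_sup_left (Subgroup.le_normalizer.trans le_sup_right))

end Cfsg.Agent.Lib.Helper31
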